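import Mathlib
import Cfsg.Agent.Lib.Helper56.TC
import Cfsg.Agent.Lib.Helper28.O73Mult.L0.D
set_option autoImplicit false
set_option maxRecDepth 1000000

namespace Cfsg.Agent.Lib.Helper28.O73Mult.L0

open Cfsg.Agent.Lib.Helper56.TC Cfsg.Agent.Lib.Helper56.TC.Tabs
open Cfsg.Agent.Lib.Helper28.CovL

theorem cN_0 : allRange (fun x => forceN T.chkName x) 0 743 = true := by decide +kernel
theorem cN_743 : allRange (fun x => forceN T.chkName x) 743 761 = true := by decide +kernel
theorem cN_1504 : allRange (fun x => forceN T.chkName x) 1504 457 = true := by decide +kernel
theorem cN_1961 : allRange (fun x => forceN T.chkName x) 1961 533 = true := by decide +kernel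
theorem cN_2494 : allRange (fun x => forceN T.chkName x) 2494 808 = true := by decide +kernel
theorem cN_3302 : allRange (fun x => forceN T.chkName x) 3302 838 = true := by decide +kernel
theorem cN_4140 : allRange (fun x => forceN T.chkName x) 4140 839 = true := by decide +kernel
theorem cN_4979 : allRange (fun x => forceN T.chkName x) 4979 799 = true := by decide +kernel
theorem cN_5778 : allRange (fun x => forceN T.chkName x) 5778 771 = true := by decide +kernel
theorem cN_6549 : allRange (fun x => forceN T.chkName x) 6549 723 = true := by decide +kernel
theorem cN_7272 : allRange (fun x => forceN T.chkName x) 7272 763 = true := by decide +kernel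
theorem cN_8035 : allRange (fun x => forceN T.chkName x) 8035 701 = true := by decide +kernel

end Cfsg.Agent.Lib.Helper28.O73Mult.L0
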