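import Mathlib
import Cfsg.Agent.Lib.Helper56.TC
import Cfsg.Agent.Lib.Helper28.O73Mult.L0.D
set_option autoImplicit false
set_option maxRecDepth 1000000

namespace Cfsg.Agent.Lib.Helper28.O73Mult.L0

open Cfsg.Agent.Lib.Helper56.TC Cfsg.Agent.Lib.Helper56.TC.Tabs
open Cfsg.Agent.Lib.Helper28.CovL

theorem cN_8736 : allRange (fun x => forceN T.chkName x) 8736 115 = true := by decide +kernel
theorem cF_0 : allRange (fun x => forceN T.chkFinName x) 0 500 = true := by decide +kernel
theorem cF_500 : allRange (fun x => forceN T.chkFinName x) 500 500 = true := by decide +kernel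
theorem cF_1000 : allRange (fun x => forceN T.chkFinName x) 1000 500 = true := by decide +kernel
theorem cF_1500 : allRange (fun x => forceN T.chkFinName x) 1500 500 = true := by decide +kernel
theorem cF_2000 : allRange (fun x => forceN T.chkFinName x) 2000 160 = true := by decide +kernel

end Cfsg.Agent.Lib.Helper28.O73Mult.L0
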