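import Mathlib
import Cfsg.Agent.Lib.Helper56.TC
import Cfsg.Agent.Lib.Helper28.O73Mult.L0.C0
import Cfsg.Agent.Lib.Helper28.O73Mult.L0.C1
set_option autoImplicit false
set_option maxRecDepth 1000000

namespace Cfsg.Agent.Lib.Helper28.O73Mult.L0

open Cfsg.Agent.Lib.Helper56.TC Cfsg.Agent.Lib.Helper56.TC.Tabs
open Cfsg.Agent.Lib.Helper28.CovL

theorem uN_743 : Upto T.chkName 743 := upto_add (upto_zero T.chkName) rfl cN_0
theorem uN_1504 : Upto T.chkName 1504 := upto_add uN_743 rfl cN_743
theorem uN_1961 : Upto T.chkName 1961 := upto_add uN_1504 rfl cN_1504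
theorem uN_2494 : Upto T.chkName 2494 := upto_add uN_1961 rfl cN_1961
theorem uN_3302 : Upto T.chkName 3302 := upto_add uN_2494 rfl cN_2494
theorem uN_4140 : Upto T.chkName 4140 := upto_add uN_3302 rfl cN_3302
theorem uN_4979 : Upto T.chkName 4979 := upto_add uN_4140 rfl cN_4140
theorem uN_5778 : Upto T.chkName 5778 := upto_add uN_4979 rfl cN_4979
theorem uN_6549 : Upto T.chkName 6549 := upto_add uN_5778 rfl cN_5778
theorem uN_7272 : Upto T.chkName 7272 := upto_add uN_6549 rfl cN_6549
theorem uN_8035 : Upto T.chkName 8035 := upto_add uN_7272 rfl cN_7272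
theorem uN_8736 : Upto T.chkName 8736 := upto_add uN_8035 rfl cN_8035
theorem uN_8851 : Upto T.chkName 8851 := upto_add uN_8736 rfl cN_8736
theorem uF_500 : Upto T.chkFinName 500 := upto_add (upto_zero T.chkFinName) rfl cF_0
theorem uF_1000 : Upto T.chkFinName 1000 := upto_add uF_500 rfl cF_500
theorem uF_1500 : Upto T.chkFinName 1500 := upto_add uF_1000 rfl cF_1000
theorem uF_2000 : Upto T.chkFinName 2000 := upto_add uF_1500 rfl cF_1500
theorem uF_2160 : Upto T.chkFinName 2160 := upto_add uF_2000 rfl cF_2000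

/-- The certificate is valid. -/
theorem certC : CertC T where
  hNN := by decide +kernel
  hN := by decide +kernel
  hinvK := by decide +kernel
  hinvli := by decide +kernel
  hsubK := by decide +kernel
  hrelK := by decide +kernel
  hrx := by decide +kernel
  hchk := uN_8851
  hfin := uF_2160

end Cfsg.Agent.Lib.Helper28.O73Mult.L0
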